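import Mathlib
import Cfsg.Agent.Lib.Helper85.KS12.S2949Core
import Cfsg.Agent.Lib.Helper11.ThompsonOf
import Cfsg.Agent.Lib.Helper11.ThompsonSylow
import Cfsg.Agent.S0029

/-!
# KS12 project, package FF3 (Frattini assembly) — helper30

`genByJComponents_of_frattini`: if `H~ = D ⊔ C ⊔ J` (`D` the join of the `J(T)`-components inside
`L`, `J = J(T)`) is normalized by `L`, `J ⊔ (C ⊓ T)` has odd index in `H~` and `C` normalizes `J`,
then `L` is generated by its `J(T)`-components together with `N_L(J)`.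
-/

set_option autoImplicit false

namespace Cfsg.Agent.Lib.Helper30.KS12

open Cfsg

variable {G : Type*} [Group G]

/-- Frattini argument for subgroups of `G`: if `P` is a `p`-subgroup of `N` of index prime to `p`
and `l` normalizes `N`, then `l = h * n` with `h ∈ N` and `n` normalizing `P`. -/
theorem frattini_sub [Finite G] {p : ℕ} [Fact p.Prime] {N P : Subgroup G}
    (hPN : P ≤ N) (hP : IsPGroup p P) (hidx : ¬ p ∣ P.relIndex N) {l : G}
    (hl : l ∈ Subgroup.normalizer (N : Set G)) :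
    ∃ h ∈ N, h⁻¹ * l ∈ Subgroup.normalizer (P : Set G) := by
  have hP' : IsPGroup p (P.subgroupOf N) := hP.comap_of_injective N.subtype N.subtype_injective
  have hidx' : ¬ p ∣ (P.subgroupOf N).index := hidx
  obtain ⟨S₁, hS₁⟩ : ∃ S : Sylow p N, ∀ y, y ∈ S ↔ y ∈ P.subgroupOf N :=
    ⟨hP'.toSylow hidx', fun y => IsPGroup.mem_toSylow hP' hidx'⟩
  obtain ⟨φ, hφ⟩ : ∃ φ : N ≃* N, ∀ y : N, ((φ y : N) : G) = l * y * l⁻¹ :=
    ⟨Cfsg.Agent.S0029.conjEquiv N l hl, fun y => rfl⟩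
  have hP2 : IsPGroup p ((P.subgroupOf N).map φ.toMonoidHom) := hP'.map _
  have hidx2 : ¬ p ∣ ((P.subgroupOf N).map φ.toMonoidHom).index := by
    rw [show ((P.subgroupOf N).map φ.toMonoidHom).index = (P.subgroupOf N).index from
      Subgroup.index_map_equiv (P.subgroupOf N) φ]
    exact hidx'
  obtain ⟨S₂, hS₂⟩ : ∃ S : Sylow p N, ∀ y, y ∈ S ↔ y ∈ (P.subgroupOf N).map φ.toMonoidHom :=
    ⟨hP2.toSylow hidx2, fun y => IsPGroup.mem_toSylow hP2 hidx2⟩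
  obtain ⟨h, hh⟩ := MulAction.exists_smul_eq N S₁ S₂
  refine ⟨h, h.2, ?_⟩
  apply Subgroup.mem_normalizer_fintype
  intro x hx
  have hx' : x ∈ P := hx
  have h1 : φ ⟨x, hPN hx'⟩ ∈ S₂ :=
    (hS₂ _).mpr ⟨⟨x, hPN hx'⟩, Subgroup.mem_subgroupOf.mpr hx', rfl⟩
  rw [← hh] at h1
  have h2 : φ ⟨x, hPN hx'⟩ ∈ ((h • S₁ : Sylow p N) : Subgroup N) := h1
  rw [Sylow.coe_subgroup_smul, Subgroup.mem_pointwise_smul_iff_inv_smul_mem] at h2
  have h3 : (MulAut.conj h)⁻¹ • φ ⟨x, hPN hx'⟩ ∈ S₁ := h2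
  rw [hS₁, Subgroup.mem_subgroupOf, MulAut.smul_def, MulAut.conj_inv_apply] at h3
  have h4 : ((h⁻¹ * φ ⟨x, hPN hx'⟩ * h : N) : G) = (h : G)⁻¹ * l * x * ((h : G)⁻¹ * l)⁻¹ := by
    push_cast
    rw [hφ]
    group
  rw [h4] at h3
  exact h3

/-- Core of the Frattini assembly, with `J` and `D` abstract. -/
theorem gen_core [Finite G] (T L C J D : Subgroup G) (hT : IsPGroup 2 T)
    (hJ : J = thompsonSubgroupOf 2 T) (hDL : D ≤ L)
    (hTL : T ≤ L) (hCL : C ≤ L)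
    (hCJ : C ≤ Subgroup.normalizer (J : Set G))
    (hHn : L ≤ Subgroup.normalizer ((D ⊔ C ⊔ J : Subgroup G) : Set G))
    (hodd : Odd ((J ⊔ (C ⊓ T)).relIndex (D ⊔ C ⊔ J))) :
    L ≤ D ⊔ (L ⊓ Subgroup.normalizer (J : Set G)) := by
  have : Fact (Nat.Prime 2) := ⟨Nat.prime_two⟩
  have hJT : J ≤ T := by
    rw [hJ]; exact Cfsg.Agent.Lib.Helper11.thompsonSubgroupOf_le 2 T
  have hPT : J ⊔ (C ⊓ T) ≤ T := sup_le hJT inf_le_right
  have hP2 : IsPGroup 2 (J ⊔ (C ⊓ T) : Subgroup G) := hT.to_le hPT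
  have hPH : J ⊔ (C ⊓ T) ≤ D ⊔ C ⊔ J :=
    sup_le le_sup_right (inf_le_left.trans (le_sup_right.trans le_sup_left))
  have hJP : thompsonSubgroupOf 2 (J ⊔ (C ⊓ T)) = J := by
    have h1 : thompsonSubgroupOf 2 T ≤ J ⊔ (C ⊓ T) := by
      rw [← hJ]; exact le_sup_left
    rw [Cfsg.Agent.Lib.Helper11.thompsonSubgroupOf_eq_of_le hPT h1, hJ]
  have hNP : Subgroup.normalizer ((J ⊔ (C ⊓ T) : Subgroup G) : Set G) ≤
      Subgroup.normalizer (J : Set G) := by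
    have h := Cfsg.Agent.Lib.Helper11.normalizer_le_normalizer_thompsonSubgroupOf 2
      (J ⊔ (C ⊓ T))
    rwa [hJP] at h
  have hJL : J ≤ L := hJT.trans hTL
  have hHL : D ⊔ C ⊔ J ≤ L := sup_le (sup_le hDL hCL) hJL
  have hHle : D ⊔ C ⊔ J ≤ D ⊔ (L ⊓ Subgroup.normalizer (J : Set G)) := by
    apply sup_le (sup_le le_sup_left ?_) ?_
    · exact le_trans (le_inf hCL hCJ) le_sup_right
    · exact le_trans (le_inf hJL Subgroup.le_normalizer) le_sup_right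
  have hnd : ¬ 2 ∣ (J ⊔ (C ⊓ T)).relIndex (D ⊔ C ⊔ J) := by
    intro hdvd
    exact (Nat.not_even_iff_odd.mpr hodd) (even_iff_two_dvd.mpr hdvd)
  intro l hl
  obtain ⟨h, hh, hn⟩ := frattini_sub hPH hP2 hnd (hHn hl)
  have e : l = h * (h⁻¹ * l) := by group
  rw [e]
  apply Subgroup.mul_mem
  · exact hHle hh
  · apply Subgroup.mem_sup_right
    exact ⟨L.mul_mem (L.inv_mem (hHL hh)) hl, hNP hn⟩

/-- Package FF3 of the KS12 project (Frattini assembly). -/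
theorem genByJComponents_of_frattini [Finite G] (T L C : Subgroup G) (hT : IsPGroup 2 T)
    (hTL : T ≤ L) (hCL : C ≤ L)
    (hCJ : C ≤ Subgroup.normalizer (thompsonSubgroupOf 2 T : Set G))
    (hHn : L ≤ Subgroup.normalizer
      ((sSup {K : Subgroup G | IsJComponent T K ∧ K ≤ L} ⊔ C ⊔ thompsonSubgroupOf 2 T :
        Subgroup G) : Set G))
    (hodd : Odd ((thompsonSubgroupOf 2 T ⊔ (C ⊓ T)).relIndex
      (sSup {K : Subgroup G | IsJComponent T K ∧ K ≤ L} ⊔ C ⊔ thompsonSubgroupOf 2 T))) :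
    Cfsg.Agent.Lib.Helper85.KS12.GenByJComponents T L :=
  gen_core T L C (thompsonSubgroupOf 2 T) (sSup {K : Subgroup G | IsJComponent T K ∧ K ≤ L}) hT
    rfl (sSup_le (fun _ hK => hK.2)) hTL hCL hCJ hHn hodd

end Cfsg.Agent.Lib.Helper30.KS12
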